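import Mathlib
import Cfsg.Agent.Lib.Comput.Lin2

/-!
# The whole space `𝔽₂^d` as a set model: a linear map is a product of at most `2d - 1` coordinate updates
`x_i += λ(x)`, each of which is one stage of a network on `2^d` points
-/

set_option autoImplicit false

namespace CfsgLib.Comput

/-- the value of the linear form `l` on `x` -/
noncomputable def par (l x d : ℕ) : Bool :=
  Nat.rec false (fun b r => Bool.rec r (Bool.rec r (Bool.rec true false r) (tb x b)) (tb l b)) d

theorem par_succ (l x d : ℕ) : par l x (d + 1) = xor (par l x d) (l.testBit d && x.testBit d) := by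
  have e : par l x (d + 1) = Bool.rec (par l x d) (Bool.rec (par l x d) (Bool.rec true false (par l x d)) (tb x d))
    (tb l d) := rfl
  rw [e, tb_eq, tb_eq]
  cases l.testBit d <;> cases x.testBit d <;> cases par l x d <;> rfl

theorem par_xor (l x y d : ℕ) : par l (x ^^^ y) d = xor (par l x d) (par l y d) := by
  induction d with
  | zero => rfl
  | succ d ih =>
    rw [par_succ, par_succ, par_succ, ih, Nat.testBit_xor]
    cases l.testBit d <;> cases x.testBit d <;> cases y.testBit d <;> cases par l x d <;> cases par l y d <;> rfl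

theorem par_two_pow {l i : ℕ} (h : l.testBit i = false) (d : ℕ) : par l (2 ^ i) d = false := by
  induction d with
  | zero => rfl
  | succ d ih =>
    rw [par_succ, ih, Nat.testBit_two_pow]
    by_cases hd : i = d
    · simp [← hd, h]
    · simp [hd]

/-- the truth table of the linear form `l` on `n` points -/
noncomputable def colXor (n l d : ℕ) : ℕ :=
  Nat.rec 0 (fun b r => Bool.rec r (Nat.xor r (col n b)) (tb l b)) d

theorem testBit_colXor {n x : ℕ} (l d : ℕ) : (colXor n l d).testBit x = (decide (x < n) && par l x d) := by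
  induction d with
  | zero => simp [colXor, par]
  | succ d ih =>
    have e : colXor n l (d + 1) = Bool.rec (colXor n l d) (colXor n l d ^^^ col n d) (tb l d) := rfl
    rw [e, par_succ, tb_eq]
    cases l.testBit d
    · simpa using ih
    · change (colXor n l d ^^^ col n d).testBit x = _
      rw [Nat.testBit_xor, ih, testBit_col]
      cases decide (x < n) <;> simp

/-- the mask of the update `x_i += l(x)` -/
noncomputable def linMask (d i l : ℕ) : ℕ :=
  (fun n => (fun c => Nat.xor c (Nat.land c (col n i))) (colXor n l d)) (Nat.shiftLeft 1 d)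

theorem testBit_linMask (d i l x : ℕ) :
    (linMask d i l).testBit x = (decide (x < 2 ^ d) && par l x d && !x.testBit i) := by
  have e : linMask d i l = colXor (1 <<< d) l d ^^^ (colXor (1 <<< d) l d &&& col (1 <<< d) i) := rfl
  rw [e, Nat.one_shiftLeft, Nat.testBit_xor, Nat.testBit_and, testBit_colXor, testBit_col]
  cases decide (x < 2 ^ d) <;> cases par l x d <;> cases x.testBit i <;> rfl

theorem add_two_pow_eq_xor {x i : ℕ} (h : x.testBit i = false) : x + 2 ^ i = x ^^^ 2 ^ i := by
  induction i generalizing x with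
  | zero =>
    have h1 : x % 2 = 0 := by simpa using h
    apply Nat.eq_of_testBit_eq
    intro j
    cases j with
    | zero => simp [Nat.add_mod, h1]
    | succ j =>
      rw [Nat.testBit_xor, Nat.testBit_succ, Nat.testBit_succ, show (x + 2 ^ 0) / 2 = x / 2 by omega]
      simp [Nat.testBit_succ]
  | succ i ih =>
    rw [Nat.testBit_succ] at h
    apply Nat.eq_of_testBit_eq
    intro j
    cases j with
    | zero => simp [Nat.add_mod, pow_succ]
    | succ j =>
      rw [Nat.testBit_succ, Nat.testBit_succ, Nat.xor_div_two, show (x + 2 ^ (i + 1)) / 2 = x / 2 + 2 ^ i by omega,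
        ih h, show 2 ^ (i + 1) / 2 = 2 ^ i by omega]

/-- the update `x_i += l(x)` -/
noncomputable def upd (d i l x : ℕ) : ℕ := Bool.rec x (Nat.xor x (Nat.shiftLeft 1 i)) (par l x d)

theorem upd_eq (d i l x : ℕ) : upd d i l x = if par l x d then x ^^^ 2 ^ i else x := by
  rw [upd, ← Nat.one_shiftLeft]
  cases par l x d <;> rfl

theorem sig_linMask {d i l x : ℕ} (hl : l.testBit i = false) (hx : x < 2 ^ d) :
    sig (2 ^ i) (linMask d i l) x = upd d i l x := by
  rw [sig, upd_eq, testBit_linMask, testBit_linMask]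
  cases hb : x.testBit i
  · cases hp : par l x d
    · rw [if_neg (by simp), if_neg, if_neg (by simp)]
      rintro ⟨h1, h2⟩
      simp only [Bool.and_eq_true, Bool.not_eq_true'] at h2
      have := add_two_pow_eq_xor h2.2
      rw [Nat.sub_add_cancel h1] at this
      rw [this, Nat.testBit_xor, h2.2, Nat.testBit_two_pow_self] at hb
      exact absurd hb (by simp)
    · simp [hx, add_two_pow_eq_xor hb]
  · have h0 : (x ^^^ 2 ^ i).testBit i = false := by rw [Nat.testBit_xor, hb, Nat.testBit_two_pow_self]; rfl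
    have h1 := add_two_pow_eq_xor h0
    rw [Nat.xor_assoc, Nat.xor_self, Nat.xor_zero] at h1
    have h2 : x - 2 ^ i = x ^^^ 2 ^ i := by omega
    rw [if_neg (by simp), h2, h0, par_xor, par_two_pow hl]
    have h3 : x ^^^ 2 ^ i < 2 ^ d := lt_of_le_of_lt (h2 ▸ Nat.sub_le _ _) hx
    have h4 : 2 ^ i ≤ x := by omega
    simp [h3, h4]

theorem upd_xor (d i l x y : ℕ) : upd d i l (x ^^^ y) = upd d i l x ^^^ upd d i l y := by
  rw [upd_eq, upd_eq, upd_eq, par_xor]
  cases par l x d <;> cases par l y d
  · simp
  · simp [Nat.xor_assoc]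
  · simp [Nat.xor_assoc, Nat.xor_comm y]
  · simp only [Bool.xor_self, Bool.false_eq_true, if_false, if_true]
    rw [Nat.xor_assoc, Nat.xor_comm y, ← Nat.xor_assoc (2 ^ i), Nat.xor_self, Nat.zero_xor]

/-- the network of a list of updates `(i, l)` -/
noncomputable def linNet (d : ℕ) (ops : List (ℕ × ℕ)) : Net :=
  List.rec Net.nil (fun o _ ih => Net.cons (Nat.shiftLeft 1 o.1) (linMask d o.1 o.2) ih) ops

/-- the composite of the updates -/
noncomputable def linFn (d : ℕ) (ops : List (ℕ × ℕ)) (x : ℕ) : ℕ :=
  List.rec x (fun o _ ih => force ih (upd d o.1 o.2)) ops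

theorem linFn_cons (d : ℕ) (o : ℕ × ℕ) (ops : List (ℕ × ℕ)) (x : ℕ) :
    linFn d (o :: ops) x = upd d o.1 o.2 (linFn d ops x) := force_eq _ _

theorem linFn_xor (d : ℕ) (ops : List (ℕ × ℕ)) (x y : ℕ) :
    linFn d ops (x ^^^ y) = linFn d ops x ^^^ linFn d ops y := by
  induction ops with
  | nil => rfl
  | cons o ops ih => rw [linFn_cons, linFn_cons, linFn_cons, ih, upd_xor]

theorem fn_linNet {d : ℕ} {ops : List (ℕ × ℕ)} (h : (linNet d ops).OK (2 ^ d))
    (hl : ∀ o ∈ ops, o.2.testBit o.1 = false) {x : ℕ} (hx : x < 2 ^ d) : (linNet d ops).fn x = linFn d ops x := by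
  induction ops with
  | nil => rfl
  | cons o ops ih =>
    have e : linNet d (o :: ops) = Net.cons (1 <<< o.1) (linMask d o.1 o.2) (linNet d ops) := rfl
    rw [e] at h ⊢
    rw [Net.fn_cons, linFn_cons, ← ih h.2 fun o' ho => hl o' (List.mem_cons_of_mem _ ho), Nat.one_shiftLeft]
    exact sig_linMask (hl o List.mem_cons_self) (Net.fn_lt h.2 hx)

/-- the updates `ops` invert the matrix `M` -/
noncomputable def linOK (d : ℕ) (M : List ℕ) (ops : List (ℕ × ℕ)) : Bool :=
  band ((linNet d ops).ok (Nat.shiftLeft 1 d)) (band (allL (fun o => Bool.rec true false (tb o.2 o.1)) ops)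
    (allLt (fun k => Nat.beq (app2 (ones d 1) M (linFn d ops (Nat.shiftLeft 1 k))) (Nat.shiftLeft 1 k)) d))

theorem acts_linNet {V G : Type*} [AddCommGroup V] [Group G] [DistribMulAction G V] (h2 : ∀ v : V, v + v = 0)
    {d : ℕ} (hd : 0 < d) {e : ℕ → V} {M : List ℕ} {a : G} (hM : Act2 d e M a) {ops : List (ℕ × ℕ)}
    (h : linOK d M ops = true) : Acts (2 ^ d) (fun x => dec2 d e x 0) (linNet d ops) a := by
  simp only [linOK, band_eq_true] at h
  obtain ⟨h3, h4, h5⟩ := h
  have hN : (linNet d ops).OK (2 ^ d) := by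
    have := Net.ok_sound h3
    rwa [show Nat.shiftLeft 1 d = 2 ^ d from Nat.one_shiftLeft d] at this
  have hl : ∀ o ∈ ops, o.2.testBit o.1 = false := by
    intro o ho
    have := allL_sound h4 o ho
    rw [tb_eq] at this
    revert this
    cases o.2.testBit o.1 <;> simp
  refine ⟨hN, fun x hx => ?_⟩
  rw [fn_linNet hN hl hx]
  have key : ∀ k ≤ d, ∀ x < 2 ^ k, a • dec2 d e (linFn d ops x) 0 = dec2 d e x 0 := by
    intro k
    induction k with
    | zero =>
      intro _ x hx
      have h0 : x = 0 := by omega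
      have h1 := linFn_xor d ops 0 0
      rw [Nat.xor_self, Nat.xor_self] at h1
      rw [h0, h1, dec2_zero, smul_zero]
    | succ k ih =>
      intro hk x hx
      rcases Nat.lt_or_ge x (2 ^ k) with h1 | h1
      · exact ih (by omega) x h1
      · have h6 : x - 2 ^ k < 2 ^ k := by omega
        have h7 := add_two_pow_eq_xor (Nat.testBit_lt_two_pow h6)
        rw [Nat.sub_add_cancel h1] at h7
        have h8 : app2 (ones d 1) M (linFn d ops (1 <<< k)) = 1 <<< k := Nat.eq_of_beq_eq_true (allLt_sound h5 k hk)
        rw [Nat.one_shiftLeft] at h8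
        rw [h7, linFn_xor, dec2_xor h2, dec2_xor h2, smul_add, ih (by omega) _ h6,
          ← dec2_app2 h2 hd hM _ Nat.one_pos, h8]
  exact key d le_rfl x hx

end CfsgLib.Comput
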